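import Cfsg.Agent.H8.C7.Set
import Cfsg.Agent.H5.C5.Grp

/-! The end game for the normaliser of `7^{1+2}` in `SL₇(q)`. -/

set_option autoImplicit false
set_option linter.unusedSimpArgs false

namespace Cfsg.Agent.H2.S7

open Matrix Cfsg.Agent.H5.T3 Cfsg.Agent.H5.C5

variable {F : Type*} [Field F] {M N : Subgroup (GL (Fin 7) F)}

theorem mem_of_inv7 {G : Type*} [Group G] (O : Subgroup G) [hO : O.Normal] (z : G)
    (hd : ∀ g, ∃ o ∈ O, ∃ c, Commute c z ∧ g = o * c) {x : G} (hx : z * x⁻¹ * z⁻¹ = x)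
    (h7 : x ^ 7 = 1) : x ∈ O := by
  obtain ⟨o, ho, c, hc, e⟩ := hd x
  have k : x * x ∈ O := by
    have : x * x = o * (z * o⁻¹ * z⁻¹) := by
      nth_rewrite 2 [← hx]
      rw [e]
      calc o * c * (z * (o * c)⁻¹ * z⁻¹) = o * (c * z) * c⁻¹ * o⁻¹ * z⁻¹ := by group
        _ = _ := by rw [hc.eq]; group
    rw [this]; exact mul_mem ho (hO.conj_mem _ (inv_mem ho) z)
  have : x = (x * x) ^ 4 := by
    rw [← pow_two, ← pow_mul, show 2 * 4 = 7 + 1 from rfl, pow_succ, h7, one_mul]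
  rw [this]; exact pow_mem k 4

theorem endgame7 {p : ℕ} {ω : F} (h : Hy p ω M)
    (hsc : ∀ g ∈ M, (∃ a : F, g.1 * ρ ω = a • (ρ ω * g.1)) → (∃ b : F, g.1 * τ = b • (τ * g.1)) → g ∈ N)
    (hC : ∀ c ∈ M, c.1 * σ = σ * c.1 → c ∈ N)
    (hu : ∀ c ∈ M, c.1 * σ = σ * c.1 → c.1 * c.1 = 1 → c.1 = 1 ∨ c.1 = σ)
    (hk : ∀ O : Subgroup M, O.Normal → Odd (Nat.card O) → ∀ c ∈ O, c.1.1 * σ = σ * c.1.1 →
      ∃ a : F, c.1.1 = a • 1) : M ≤ N := by
  haveI := h.fin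
  obtain ⟨z0, hz0, ez⟩ := h.hσ
  let z : M := ⟨z0, hz0⟩
  have zz : z * z = 1 := Subtype.ext (Units.ext (by
    show z0.1 * z0.1 = 1
    rw [ez, σσ]))
  have z1 : z ≠ 1 := fun e => by
    have := congrFun (congrFun (ez.symm.trans (congrArg (fun x : M => x.1.1) e)) 1) 1
    simp [σ] at this
  have zo : orderOf z = 2 := orderOf_eq_prime (by rw [pow_two, zz]) z1
  have inC : ∀ c : M, Commute c z → c.1.1 * σ = σ * c.1.1 := fun c hc =>
    ez ▸ congrArg (fun x : M => x.1.1) hc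
  obtain ⟨O, hO, ho, hd⟩ := H4.BS.bs (uniq_inv z zo fun c hc c2 =>
    (hu c c.2 (inC c hc) (by rw [pow_two] at c2; exact congrArg (fun x : M => x.1.1) c2)).imp
      (fun e => Subtype.ext (Units.ext e)) fun e => Subtype.ext (Units.ext (e.trans ez.symm))) z zo
  have ab := ab_mod O ho z zz ((Subgroup.center (GL (Fin 7) F)).subgroupOf M)
    (fun c hc => Subgroup.mem_center_iff.2 fun g =>
      Subtype.ext (Subgroup.mem_center_iff.1 (Subgroup.mem_subgroupOf.1 hc) g.1)) fun c hc hcz => by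
      obtain ⟨a, ha⟩ := hk O hO ho c hc (inC c hcz)
      refine Subgroup.mem_center_iff.2 fun g => Units.ext ?_
      show g.1 * c.1.1 = c.1.1 * g.1
      rw [ha]; simp
  have inO : ∀ X : M7 F, InM M X → X * σ * X = σ → X ^ 7 = 1 → ∀ o ∈ O,
      ∃ a : F, o.1.1 * X = a • (X * o.1.1) := by
    rintro _ ⟨x, hx, rfl⟩ e1 e2 o ho
    obtain ⟨c, hc, e⟩ := ab o ho ⟨x, hx⟩ (mem_of_inv7 O z hd (by
      rw [mul_inv_eq_iff_eq_mul, mul_inv_eq_iff_eq_mul]
      exact Subtype.ext (Units.ext (by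
        show z0.1 = x.1 * z0.1 * x.1
        rw [ez, e1]))) (Subtype.ext (Units.ext (by
        show (x ^ 7).1 = 1
        rw [Units.val_pow_eq_pow_val, e2]))))
    rw [Subgroup.mem_subgroupOf, GeneralLinearGroup.center_eq_range_scalar] at hc
    obtain ⟨a, ha⟩ := hc
    refine ⟨a, ?_⟩
    have e' : o.1.1 * x.1 = c.1.1 * (x.1 * o.1.1) := congrArg (fun x : M => x.1.1) e
    rw [e', ← ha]; simp [smul_eq_diagonal_mul]
  have h7 := h.one7
  intro g hg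
  obtain ⟨o, ho', c, hc, e⟩ := hd ⟨g, hg⟩
  have e' : g = o.1 * c.1 := congrArg Subtype.val e
  rw [e']
  refine mul_mem (hsc _ o.2 (inO _ h.hρ ?_ ?_ o ho') (inO _ h.hτ (by m7) ?_ o ho')) (hC _ c.2 (inC c hc))
  · m7x <;> linear_combination h7
  · have k : ∀ n, (ω ^ n) ^ 7 = 1 := fun n => by rw [← pow_mul, mul_comm, pow_mul, h7, one_pow]
    rw [ρ_eq, diagonal_pow]
    ext i j; simp [k, diagonal_apply, one_apply]
  · have e2 : (τ * τ * τ : M7 F) = τ' * τ' * τ' * τ' := by m7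
    rw [show (τ : M7 F) ^ 7 = τ ^ 4 * τ ^ 3 from pow_add τ 4 3, pow_three, ← mul_assoc τ, e2]
    simp only [pow_succ, pow_zero, one_mul, mul_assoc]
    simp only [← mul_assoc τ τ', ττ', one_mul]

end Cfsg.Agent.H2.S7
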