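import Cfsg.Agent.H4.Q8.F8

/-! Additive groups of `4 × 4` matrices over `F₈` invariant under `SL₂(7)`. -/

set_option autoImplicit false
set_option maxRecDepth 100000

namespace Cfsg.Agent.H4.Q8

open Matrix Finset

abbrev M7 := Matrix (Fin 7) (Fin 7) F8
abbrev M4 := Matrix (Fin 4) (Fin 4) F8
abbrev M3 := Matrix (Fin 3) (Fin 3) F8

/-- the generator -/
def g : F8 := F8.mk 2

theorem add_self (x : F8) : x + x = 0 := by revert x; decide +kernel

theorem eq_of_add {x y : F8} (h : x + y = 0) : x = y := by revert x y; decide +kernel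

def d4 : Fin 4 → F8 := ![1, g, g ^ 4, g ^ 2]
def d4' : Fin 4 → F8 := ![1, g ^ 6, g ^ 3, g ^ 5]
def Φ4 : M4 := !![1, 0, 0, 0; 1, g ^ 5, g ^ 3, g ^ 6; 1, g ^ 3, g ^ 6, g ^ 5; 1, g ^ 6, g ^ 5, g ^ 3]
def n4 : M4 := diagonal ![0, 1, 1, 1]
def Y0 : M4 := !![0, 1, 1, 1; 0, 0, 0, 1; 0, 1, 0, 0; 0, 0, 1, 0]
def Yf (e a b c : F8) : M4 := !![0, a, b, c; 0, e, 0, a; 0, b, e, 0; 0, 0, c, e]
def cu (k : ℕ) (Y : M4) : M4 := diagonal d4 ^ k * Y * diagonal d4' ^ k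
def lam : Fin 6 → ℕ → F8 := fun r k => F8.mk (![3547261, 7512436, 3162745, 5641732, 7634215, 5237146] r / 10 ^ (6 - k) % 10)
def Dm : Fin 6 → M4 := ![single 2 1 1, single 3 1 1 + single 1 0 1, single 1 2 1 + single 2 0 1, single 3 2 1,
  single 1 3 1, single 2 3 1 + single 3 0 1]

theorem lam_eq : ∀ r, ∑ k ∈ range 7, lam r k • (n4 * (diagonal d4' ^ k * Φ4ᵀ * diagonal ![0, 1, 1, 0] * Φ4 *
    diagonal d4 ^ k)) = Dm r := by decide +kernel

theorem cu_succ (k : ℕ) (Y : M4) : cu (k + 1) Y = diagonal d4 * cu k Y * diagonal d4' := by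
  rw [cu, cu, pow_succ', pow_succ]; simp only [Matrix.mul_assoc]

theorem cu_Yf (k : ℕ) (e a b c : F8) :
    cu k (Yf e a b c) = Yf e ((g ^ 6) ^ k * a) ((g ^ 3) ^ k * b) ((g ^ 5) ^ k * c) := by
  induction k with
  | zero => simp [cu]
  | succ k ih =>
    rw [cu_succ, ih, pow_succ' (g ^ 6), pow_succ' (g ^ 3), pow_succ' (g ^ 5), mul_assoc (g ^ 6),
      mul_assoc (g ^ 3), mul_assoc (g ^ 5)]
    clear ih
    generalize (g ^ 6) ^ k * a = a
    generalize (g ^ 3) ^ k * b = b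
    generalize (g ^ 5) ^ k * c = c
    ext i j
    rw [mul_diagonal, diagonal_mul]
    fin_cases i <;> fin_cases j <;> simp only [Yf, of_apply, cons_val', cons_val_fin_one, Fin.mk_one,
      Fin.zero_eta, Fin.reduceFinMk, Matrix.cons_val] <;>
      first | decide +kernel | (revert a; decide +kernel) | (revert b; decide +kernel) |
        (revert c; decide +kernel) | (revert e; decide +kernel)

theorem Φ_Yf (e a b c : F8) : (Φ4 * Yf e a b c * Φ4ᵀ) 1 1 = e + a + b + c := by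
  have : Yf e a b c = e • Yf 1 0 0 0 + a • Yf 0 1 0 0 + b • Yf 0 0 1 0 + c • Yf 0 0 0 1 := by
    ext i j; fin_cases i <;> fin_cases j <;> simp [Yf]
  rw [this]
  simp only [Matrix.mul_add, Matrix.add_mul, Matrix.mul_smul, Matrix.smul_mul, Matrix.add_apply,
    Matrix.smul_apply]
  rw [show (Φ4 * Yf 1 0 0 0 * Φ4ᵀ) 1 1 = 1 by decide +kernel, show (Φ4 * Yf 0 1 0 0 * Φ4ᵀ) 1 1 = 1 by
    decide +kernel, show (Φ4 * Yf 0 0 1 0 * Φ4ᵀ) 1 1 = 1 by decide +kernel,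
    show (Φ4 * Yf 0 0 0 1 * Φ4ᵀ) 1 1 = 1 by decide +kernel]
  simp

theorem Yf_cases : ∀ e ∈ [(0 : F8), 1], ∀ a b c : F8, (∀ k : Fin 7,
    e + (g ^ 6) ^ k.1 * a + (g ^ 3) ^ k.1 * b + (g ^ 5) ^ k.1 * c ∈ [(0 : F8), 1]) → a = 0 ∧ b = 0 ∧ c = 0 ∨
      ∃ k : Fin 7, (g ^ 6) ^ k.1 * a = 1 ∧ (g ^ 3) ^ k.1 * b = 1 ∧ (g ^ 5) ^ k.1 * c = 1 := by
  decide +kernel

/-- an invariant additive group of matrices with zero first column -/
structure PK (S : M4 → Prop) : Prop where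
  col : ∀ Y, S Y → ∀ i, Y i 0 = 0
  add : ∀ Y Y', S Y → S Y' → S (Y + Y')
  su : ∀ Y, S Y → S (diagonal d4 * Y * diagonal d4')
  sφ : ∀ Y, S Y → S (Φ4 * Y * Φ4ᵀ)
  sn : S n4
  dg : ∀ a b c, S (diagonal ![0, a, b, c]) → (a = 0 ∨ a = 1) ∧ (b = 0 ∨ b = 1) ∧ (c = 0 ∨ c = 1)
  k0 : S Y0 → S (diagonal ![0, 1, 0, 0])

namespace PK

variable {S : M4 → Prop} (h : PK S) {Y : M4}
include h

theorem scu (hY : S Y) (k : ℕ) : S (cu k Y) := by
  induction k with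
  | zero => simpa [cu] using hY
  | succ k ih => exact cu_succ k Y ▸ h.su _ ih

theorem avg (hY : S Y) : S (diagonal ![0, Y 1 1, Y 2 2, Y 3 3]) := by
  have : ∑ k ∈ range 7, cu k Y = diagonal ![0, Y 1 1, Y 2 2, Y 3 3] := by
    ext i j
    have e : ∀ i j, ∑ k ∈ range 7, d4 i ^ k * d4' j ^ k = if i = j then 1 else 0 := by decide +kernel
    simp only [cu, diagonal_pow, Matrix.sum_apply, mul_diagonal, diagonal_mul, Pi.pow_apply,
      mul_right_comm _ (Y i j), ← sum_mul, e, diagonal_apply]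
    split_ifs with f
    · subst f; fin_cases i <;> simp [h.col Y hY]
    · simp
  rw [← this]
  exact sum_induction _ S h.add ((by decide +kernel : n4 + n4 = 0) ▸ h.add _ _ h.sn h.sn)
    fun k _ => h.scu hY k

theorem eqd (hY : S Y) : Y 2 2 = Y 1 1 ∧ Y 3 3 = Y 1 1 ∧ (Y 1 1 = 0 ∨ Y 1 1 = 1) := by
  have h1 := h.avg hY
  have h2 := (h.dg _ _ _ (h.avg (h.sφ _ h1))).1
  have h3 := h.dg _ _ _ h1
  generalize Y 1 1 = a at *
  generalize Y 2 2 = b at *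
  generalize Y 3 3 = c at *
  clear h1
  revert a b c
  decide +kernel

theorem main (hY : S Y) : Y = 0 ∨ Y = n4 := by
  have c := h.col Y hY
  have e : Y * n4 = Y := by
    ext i j; fin_cases j <;> simp [n4, c]
  have h1 : ∀ r, trace (Dm r * Y) = 0 := fun r => by
    rw [← lam_eq, Matrix.sum_mul, trace_sum]
    refine sum_eq_zero fun k _ => ?_
    have := (h.eqd (h.sφ _ (h.scu hY k))).1
    rw [Matrix.smul_mul, trace_smul, Matrix.mul_assoc, trace_mul_comm, Matrix.mul_assoc, e,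
      Matrix.mul_assoc, Matrix.mul_assoc, Matrix.mul_assoc, trace_mul_comm, Matrix.mul_assoc,
      Matrix.mul_assoc, Matrix.mul_assoc, ← Matrix.mul_assoc Y, ← Matrix.mul_assoc (_ ^ k),
      ← Matrix.mul_assoc (_ ^ k), ← Matrix.mul_assoc Φ4, ← cu]
    generalize Φ4 * cu k Y * Φ4ᵀ = Z at *
    simp [trace, Fin.sum_univ_four, this, add_self]
  obtain ⟨e1, e2, e3⟩ := h.eqd hY
  have : Y = Yf (Y 1 1) (Y 0 1) (Y 0 2) (Y 0 3) := by
    have a0 := h1 0
    have a1 := h1 1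
    have a2 := h1 2
    have a3 := h1 3
    have a4 := h1 4
    have a5 := h1 5
    simp [Dm, Matrix.add_mul, trace_single_mul] at a0 a1 a2 a3 a4 a5
    ext i j
    fin_cases i <;> fin_cases j <;>
      simp [Yf, c, e1, e2, a0, a3, a4, eq_of_add a1, eq_of_add a2, eq_of_add a5]
  rw [this] at hY ⊢
  generalize Y 1 1 = e at hY e3 ⊢
  rcases Yf_cases e (by simpa using e3) _ _ _ fun k => by
    simpa [cu_Yf, Φ_Yf] using (h.eqd (h.sφ _ (h.scu hY k))).2.2 with ⟨f1, f2, f3⟩ | ⟨k, f1, f2, f3⟩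
  · rw [f1, f2, f3]
    rcases e3 with rfl | rfl <;> decide +kernel
  have := h.scu hY k
  rw [cu_Yf, f1, f2, f3] at this
  refine absurd (h.eqd (h.k0 ?_)).1 (by decide +kernel)
  rcases e3 with rfl | rfl
  · exact this
  · exact (by decide +kernel : Yf 1 1 1 1 + n4 = Y0) ▸ h.add _ _ this h.sn

end PK

end Cfsg.Agent.H4.Q8
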