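import Cfsg.Agent.H4.Q8.A
import Cfsg.Agent.H8.C7.Set

/-! The kernel of the centraliser of `σ` on `[V, σ]` for `q = 8`. -/

set_option autoImplicit false
set_option maxRecDepth 100000

namespace Cfsg.Agent.H4.Q8

open Matrix Cfsg.Agent.H5.T3 Cfsg.Agent.H5.C5
open Cfsg.Agent.H2.S7 (ρ τ τ' uu σ δ δ' Φ Av Au Hy σσ)

variable {M : Subgroup (GL (Fin 7) F8)}

/-- elements acting trivially on `[V, σ]` and `V / C_V(σ)` -/
def kk (Y : M4) : M7 := 1 + Av F8 * Y * (Av F8)ᵀ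
def J4 : M4 := single 0 0 1
def R4 : Matrix (Fin 7) (Fin 4) F8 := of fun i j => if i.1 = j.1 then 1 else 0
def Z3 : Matrix (Fin 7) (Fin 3) F8 := of fun i j => if i.1 + j.1 = 6 then 1 else 0

theorem kk_mul (Y Y' : M4) : kk Y * kk Y' = kk (Y + Y' + Y * J4 * Y') := by
  rw [← (by decide +kernel : (Av F8)ᵀ * Av F8 = J4)]
  simp only [kk, Matrix.mul_add, Matrix.add_mul, Matrix.mul_one, Matrix.one_mul, Matrix.mul_assoc]
  abel

theorem kk_conj {X X' : M7} {a a' : M4} (h : X * X' = 1) (h1 : X * Av F8 = Av F8 * a)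
    (h2 : (Av F8)ᵀ * X' = a' * (Av F8)ᵀ) (Y : M4) : X * kk Y * X' = kk (a * Y * a') := by
  rw [kk, kk, Matrix.mul_add, Matrix.add_mul, Matrix.mul_one, h, ← Matrix.mul_assoc, ← Matrix.mul_assoc, h1,
    Matrix.mul_assoc _ _ X', h2]
  simp only [Matrix.mul_assoc]

theorem inM_left {X Y Z : M7} (hX : InM M X) (hY : InM M Y) (e : Z * Y = X) : InM M Z := by
  obtain ⟨y, hy, rfl⟩ := hY
  exact (hX.mul (InM.of (inv_mem hy))).congr (by rw [← e, Units.mul_inv_cancel_right])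

theorem hΦ (h : Hy 2 g M) : InM M (Φ g) := by
  obtain ⟨c, h1, h2⟩ := h.hφ
  rwa [(by decide +kernel : ∀ c : F8, 7 * c ^ 2 = -1 → c = 1) c h1, one_smul] at h2

theorem word (h : Hy 2 g M) {K : M7} (hK : InM M K) (e : kk (diagonal ![0, 1, 0, 0]) *
    (δ * τ * K * τ * K * τ * τ * K) = δ * τ * K * τ * K * τ * τ * K *
      (τ * K * δ * τ * K * τ * K * σ * τ) ^ 5) : InM M (kk (diagonal ![0, 1, 0, 0])) := by
  have t := h.hτ
  have a := ((((((h.hδ.mul t).mul hK).mul t).mul hK).mul t).mul t).mul hK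
  exact inM_left (a.mul (((((((((t.mul hK).mul h.hδ).mul t).mul hK).mul t).mul hK).mul h.hσ).mul t).pow 5))
    a e

/-- diagonal elements are monomial -/
def Mon (M : Subgroup (GL (Fin 7) F8)) : Prop := ∀ a b c, InM M (kk (diagonal ![0, a, b, c])) →
  (a = 0 ∨ a = 1) ∧ (b = 0 ∨ b = 1) ∧ (c = 0 ∨ c = 1)

theorem col_J {Y : M4} (h : ∀ i, Y i 0 = 0) : Y * J4 = 0 := by
  ext i j; fin_cases j <;> simp [J4, h, mul_apply, single_apply, Fin.sum_univ_four]

theorem col_mul {a a' Y : M4} (h : ∀ i, Y i 0 = 0) (h' : J4 * a' * J4 = a' * J4) (i : Fin 4) :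
    (a * Y * a') i 0 = 0 := by
  have : a * Y * a' * J4 = 0 := by
    rw [Matrix.mul_assoc, ← h', Matrix.mul_assoc a, ← Matrix.mul_assoc Y, ← Matrix.mul_assoc Y, col_J h]
    simp
  simpa [J4] using congrFun (congrFun this i) 0

theorem pkβ (h : Hy 2 g M) (m : Mon M) : PK fun Y => InM M (kk Y) ∧ ∀ i, Y i 0 = 0 where
  col _ h := h.2
  add Y Y' a b := ⟨(a.1.mul b.1).congr (by rw [kk_mul, col_J a.2]; simp), fun i => by simp [a.2, b.2]⟩
  su Y a := ⟨((h.hu.mul a.1).mul (h.hu.pow 6)).congr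
    (kk_conj (by decide +kernel) (by decide +kernel) (by decide +kernel) Y), col_mul a.2 (by decide +kernel)⟩
  sφ Y a := ⟨(((hΦ h).mul a.1).mul ((hΦ h).mul h.hσ)).congr
    (kk_conj (by decide +kernel) (by decide +kernel) (by decide +kernel) Y), col_mul a.2 (by decide +kernel)⟩
  sn := ⟨h.hσ.congr (by decide +kernel), by decide +kernel⟩
  dg a b c k := m a b c k.1
  k0 k := ⟨word h k.1 (by decide +kernel), by decide +kernel⟩

theorem pkα (h : Hy 2 g M) (m : Mon M) : PK fun Y => InM M (kk Yᵀ) ∧ ∀ i, Y i 0 = 0 where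
  col _ h := h.2
  add Y Y' a b := ⟨(a.1.mul b.1).congr (by
    rw [kk_mul, Matrix.mul_assoc, show J4 = J4ᵀ by decide +kernel, ← transpose_mul, col_J b.2]; simp),
    fun i => by simp [a.2, b.2]⟩
  su Y a := ⟨(((h.hu.pow 6).mul a.1).mul h.hu).congr (by
    rw [transpose_mul, transpose_mul, ← Matrix.mul_assoc (diagonal d4')ᵀ]
    exact kk_conj (by decide +kernel) (by decide +kernel) (by decide +kernel) _),
    col_mul a.2 (by decide +kernel)⟩
  sφ Y a := ⟨(((hΦ h).mul a.1).mul ((hΦ h).mul h.hσ)).congr (by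
    rw [transpose_mul, transpose_mul, ← Matrix.mul_assoc Φ4ᵀᵀ]
    exact kk_conj (by decide +kernel) (by decide +kernel) (by decide +kernel) _),
    col_mul a.2 (by decide +kernel)⟩
  sn := ⟨h.hσ.congr (by decide +kernel), by decide +kernel⟩
  dg a b c k := m a b c (by simpa using k.1)
  k0 k := ⟨by simpa using word h k.1 (by decide +kernel), by decide +kernel⟩

theorem kk_cases (h : Hy 2 g M) (m : Mon M) {Y : M4} (hY : InM M (kk Y)) : Y = 0 ∨ Y = n4 := by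
  have h0 : Y 0 0 = 0 := by
    obtain ⟨k, h1, h2⟩ := hY
    have := h.det k h1
    rw [h2, kk, Matrix.mul_assoc, det_one_add_mul_comm, Matrix.mul_assoc,
      (by decide +kernel : (Av F8)ᵀ * Av F8 = !![(1 : F8); 0; 0; 0] * !![(1 : F8), 0, 0, 0]),
      ← Matrix.mul_assoc,
      det_one_add_mul_comm, det_fin_one] at this
    simpa [mul_apply, vecMul, dotProduct, Fin.sum_univ_four] using this
  have e : ∀ i j, (Y * J4 * Y) i j = Y i 0 * Y 0 j := fun i j => by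
    simp [J4, mul_apply, single_apply, Fin.sum_univ_four]
  have h1 := (pkβ h m).main (Y := Y * J4 * Y) ⟨(hY.mul hY).congr (by
    rw [kk_mul, show Y + Y = 0 by ext; simp [add_self], zero_add]), fun i => by rw [e, h0, mul_zero]⟩
  by_cases hβ : ∀ i, Y i 0 = 0
  · exact (pkβ h m).main ⟨hY, hβ⟩
  refine ((pkα h m).main (Y := Yᵀ) ⟨hY, fun j => ?_⟩).imp (fun f => by simpa using congrArg transpose f)
    fun f => (congrArg transpose f).trans (by decide +kernel)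
  rcases h1 with f | f
  · obtain ⟨i, hi⟩ := not_forall.1 hβ
    exact (mul_eq_zero.1 ((e i j).symm.trans (congrFun (congrFun f i) j))).resolve_left hi
  · have a := (e 1 1).symm.trans (congrFun (congrFun f 1) 1)
    have b := (e 2 2).symm.trans (congrFun (congrFun f 2) 2)
    have c := (e 1 2).symm.trans (congrFun (congrFun f 1) 2)
    simp [n4] at a b c
    rcases c with c | c <;> simp [c] at a b

theorem res_eq {X : M7} (h : X * σ = σ * X) : X * Au F8 = Au F8 * (Z3ᵀ * X * Au F8) ∧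
    (Au F8)ᵀ * X * Z3 = Z3ᵀ * X * Au F8 ∧ (Au F8)ᵀ * X = Z3ᵀ * X * Au F8 * (Au F8)ᵀ := by
  rw [(by decide +kernel : (σ : M7) = 1 + Au F8 * (Au F8)ᵀ), Matrix.mul_add, Matrix.add_mul,
    Matrix.mul_one, Matrix.one_mul, add_right_inj] at h
  have e1 : (Au F8)ᵀ * Z3 = 1 := by decide +kernel
  have e2 : Z3ᵀ * Au F8 = 1 := by decide +kernel
  have a : X * Au F8 = Au F8 * ((Au F8)ᵀ * X * Z3) := by
    rw [← Matrix.mul_assoc, ← Matrix.mul_assoc, ← h, Matrix.mul_assoc, Matrix.mul_assoc, e1, Matrix.mul_one]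
  have b : (Au F8)ᵀ * X * Z3 = Z3ᵀ * X * Au F8 := by
    rw [Matrix.mul_assoc Z3ᵀ, a, ← Matrix.mul_assoc Z3ᵀ, e2, Matrix.one_mul]
  refine ⟨b ▸ a, b, ?_⟩
  rw [Matrix.mul_assoc _ (Au F8), Matrix.mul_assoc Z3ᵀ, h, ← Matrix.mul_assoc, ← Matrix.mul_assoc, e2,
    Matrix.one_mul]

theorem ker_cases (h : Hy 2 g M) (m : Mon M) {X : M7} (hX : InM M X) (c : X * σ = σ * X)
    (e : Z3ᵀ * X * Au F8 = 1) : X = 1 ∨ X = σ := by
  obtain ⟨a, -, b⟩ := res_eq c
  rw [e, Matrix.mul_one] at a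
  rw [e, Matrix.one_mul] at b
  have : X = kk (R4ᵀ * (X - 1) * R4) := by
    have e1 : (X - 1) * (R4 * (Av F8)ᵀ) = X - 1 := by
      rw [(by decide +kernel : R4 * (Av F8)ᵀ = 1 + Au F8 * Z3ᵀ), Matrix.mul_add, ← Matrix.mul_assoc,
        Matrix.sub_mul X 1 (Au F8), a]; simp
    have e2 : Av F8 * R4ᵀ * (X - 1) = X - 1 := by
      rw [(by decide +kernel : Av F8 * R4ᵀ = 1 + Z3 * (Au F8)ᵀ), Matrix.add_mul, Matrix.mul_assoc,
        Matrix.mul_sub (Au F8)ᵀ, b]; simp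
    rw [kk, ← Matrix.mul_assoc, ← Matrix.mul_assoc, e2, Matrix.mul_assoc, e1]; simp
  rw [this] at hX ⊢
  rcases kk_cases h m hX with f | f <;> rw [f] <;> decide +kernel

end Cfsg.Agent.H4.Q8
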