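import Cfsg.Agent.H4.Q8.B
import Cfsg.Agent.H8.C7.T

/-! For `q = 8` the stabiliser of the splitting does not induce `SL₂(8)` on the planes. -/

set_option autoImplicit false
set_option maxRecDepth 100000

namespace Cfsg.Agent.H4.Q8

open Matrix Cfsg.Agent.H5.T3 Cfsg.Agent.H5.C5 Cfsg.Agent.H7
open Cfsg.Agent.H2.S7 (ρ τ τ' uu σ δ δ' Φ Av Au Hy σσ bk HH r0 r1 r2 r3 HH_bk ex_HH)

variable {M : Subgroup (GL (Fin 7) F8)}

theorem unip2 [CharP F8 2] {n : ℕ} {X : Matrix (Fin (n + 1)) (Fin (n + 1)) F8} {a : ℕ}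
    (hX : X ^ 2 ^ a = 1) : (X - 1) ^ (n + 1) = 0 := by
  have e := sub_pow_char_pow_of_commute (R := Matrix (Fin (n + 1)) (Fin (n + 1)) F8) 2 a
    (Commute.one_right X)
  rw [hX, one_pow, sub_self] at e
  have h1 := Matrix.aeval_self_charpoly (X - 1)
  rw [sub_eq_zero.1 (Matrix.isNilpotent_charpoly_sub_pow_of_isNilpotent ⟨_, e⟩).eq_zero] at h1
  simpa using h1

theorem two_cases : ∀ a b c d : F8, (!![a, b; c, d] - 1) ^ 2 = 0 →
    (∃ e : F8, (!![0, 1; 1, 0] * !![a, b; c, d]) ^ 2 = e • 1) →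
    ((∃ e : F8, (!![g ^ 2, 0; 0, g ^ 5] * !![a, b; c, d]) ^ 3 = e • 1) →
      !![a, b; c, d] = !![g ^ 4, g ^ 5; g ^ 5, g ^ 4]) ∧
    ((∃ e : F8, (!![g ^ 4, 0; 0, g ^ 3] * !![a, b; c, d]) ^ 3 = e • 1) →
      !![a, b; c, d] = !![g, g ^ 3; g ^ 3, g]) := by decide +kernel

theorem noslin (h : Hy 2 g M) (hn : ¬ SLin M) (h1 : SLin (r1 M).range) : False := by
  haveI := h.fin
  haveI := h.char
  obtain ⟨_, ⟨y, rfl⟩, e⟩ := h1 !![g ^ 2, g ^ 6; g ^ 6, g ^ 2] (by rw [det_fin_two_of]; decide +kernel)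
  obtain ⟨x, -, ⟨a, ha⟩, hx⟩ := exists_ppart Nat.prime_two (r1 M) y (Units.ext (by
    rw [Units.val_pow_eq_pow_val, e]; decide +kernel))
  rw [← hx] at e
  have pw : ∀ {n} (r : HH M →* GL (Fin (n + 1)) F8), ((r x).1 - 1) ^ (n + 1) = 0 := fun r =>
    unip2 (a := a) (by rw [← Units.val_pow_eq_pow_val, ← map_pow, ha, map_one, Units.val_one])
  obtain ⟨r, -, q1, q2, q3⟩ := h.exρ
  obtain ⟨s, -, s1, s2, s3⟩ := ex_HH (a := 1) (X := !![0, 1; 1, 0]) (Y := !![0, 1; 1, 0])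
    (Z := !![0, 1; 1, 0]) (h.hσ.congr (by decide +kernel))
  have b1 := h.TB1 h1 hn ((s * x) ^ 2) ⟨1, by
    rw [map_pow, map_mul, Units.val_pow_eq_pow_val, Units.val_mul, s1, e]; decide +kernel⟩
  have b2 := h.TB1 h1 hn ((r * x) ^ 3) ⟨1, by
    rw [map_pow, map_mul, Units.val_pow_eq_pow_val, Units.val_mul, q1, e]; decide +kernel⟩
  simp only [map_pow, map_mul, Units.val_pow_eq_pow_val, Units.val_mul, s2, s3, q2, q3] at b1 b2
  have x0 : (r0 M x).1 0 0 = 1 := by simpa [sub_eq_zero] using congrFun (congrFun (pw (r0 M)) 0) 0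
  have x2 := pw (r2 M)
  have x3 := pw (r3 M)
  have hX := InM.of x.2.1
  rw [HH_bk, x0, e] at hX
  rw [eta_fin_two (r2 M x).1, eta_fin_two (r3 M x).1] at *
  rw [(two_cases _ _ _ _ x2 b1.1).1 b2.1, (two_cases _ _ _ _ x3 b1.2).2 b2.2] at hX
  obtain ⟨z, -, z1, z2, -⟩ := ex_HH (a := 1) (X := !![0, 1; 1, 0]) (Y := 1) (Z := !![0, 1; 1, 0])
    (((((((hΦ h).mul h.hσ).mul hX).mul (hΦ h)).mul h.hσ).mul h.hu).pow 7 |>.congr (by decide +kernel))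
  obtain ⟨c, hc⟩ := (h.TB2 h1 hn z ⟨1, by rw [z2, one_smul]⟩).1
  simpa [z1] using congrFun (congrFun hc 0) 1

theorem mon (h : Hy 2 g M) (hn : ¬ SLin M) : Mon M := fun a b c k => by
  obtain ⟨x, -, x1, x2, x3⟩ := ex_HH (a := 1) (X := !![1 + a, a; a, 1 + a]) (Y := !![1 + b, b; b, 1 + b])
    (Z := !![1 + c, c; c, 1 + c]) (k.congr (by
      ext i j; fin_cases i <;> fin_cases j <;>
        simp [kk, Av, bk, mul_apply, vecMul, dotProduct, Fin.sum_univ_succ, diagonal_apply]))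
  have key : ∀ (x : HH M) (a : F8), (r1 M x).1 = !![1 + a, a; a, 1 + a] → a = 0 ∨ a = 1 := fun x a e => by
    by_contra! f
    exact noslin h hn (h.slin_r1 x (.inl (by simpa [e] using fun e => f.2 (eq_of_add e).symm))
      (.inl (by simpa [e] using f.1)))
  obtain ⟨y, -, -, y3, y1⟩ := h.cyc x
  obtain ⟨z, -, -, -, z1⟩ := h.cyc y
  exact ⟨key x a x1, key z b (by rw [z1, y3, x2]), key y c (by rw [y1, x3])⟩

end Cfsg.Agent.H4.Q8
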