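import Cfsg.Agent.H4.Q8.D

/-! The overgroups of the normaliser of `7^{1+2}` in `SL₇(8)`. -/

set_option autoImplicit false
set_option maxRecDepth 100000

namespace Cfsg.Agent.H4.Q8

open Matrix Cfsg.Agent.H5.T3 Cfsg.Agent.H5.C5
open Cfsg.Agent.H2.S7 (ρ τ τ' uu σ δ δ' Φ Av Au Hy σσ endgame7)

variable {M N : Subgroup (GL (Fin 7) F8)}

theorem mem_ev {x : GL (Fin 3) F8} (h : x ∈ Geo.subfieldSubgroup F2 P3) (d : x.1.det = 1) :
    ∃ m, x.1 = ev m := by
  obtain ⟨c, c0, hc⟩ := H7.mem_subfieldSubgroup_iff.1 h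
  have e : (H7.cj P3⁻¹ x.1).det = 1 := by
    rw [H7.cj_apply, det_mul, det_mul, d, mul_one, ← det_mul, Units.mul_inv, det_one]
  have e' : (c • H7.cj P3⁻¹ x.1).det = c ^ 3 := by rw [det_smul, e, mul_one, Fintype.card_fin]
  rw [det_fin_three] at e'
  have hm := ev_all _ (hc 0 0) _ (hc 0 1) _ (hc 0 2) _ (hc 1 0) _ (hc 1 1) _ (hc 1 2) _ (hc 2 0) _
    (hc 2 1) _ (hc 2 2) (e'.trans_ne (pow_ne_zero 3 c0))
  obtain rfl : c = 1 := (by decide +kernel : ∀ c : F8, c ≠ 0 → c ^ 3 ∈ [(0 : F8), 1] → c = 1) c c0 (by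
    rw [← e']
    exact sub_mem (add_mem (add_mem (sub_mem (sub_mem (mul_mem (mul_mem (hc 0 0) (hc 1 1)) (hc 2 2))
      (mul_mem (mul_mem (hc 0 0) (hc 1 2)) (hc 2 1))) (mul_mem (mul_mem (hc 0 1) (hc 1 0)) (hc 2 2)))
      (mul_mem (mul_mem (hc 0 1) (hc 1 2)) (hc 2 0))) (mul_mem (mul_mem (hc 0 2) (hc 1 0)) (hc 2 1)))
      (mul_mem (mul_mem (hc 0 2) (hc 1 1)) (hc 2 0)))
  simp only [one_mul, ← eta_fin_three] at hm
  exact ⟨_, (H7.cj P3⁻¹).injective hm.symm⟩

theorem no_ext {G : Type*} [Group G] {s x y z : G} (hs : ∀ a, a * s = s * a) (s2 : s * s = 1)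
    (hx : x * x = s) (hy : y * y = s) (hz : z * z = s) (h1 : x * y * (x * y) = s) (h2 : x * z * (x * z) = s)
    (h3 : y * z * (y * z) = s) (h4 : x * (y * z) * (x * (y * z)) = s) : s = 1 := by
  have k : ∀ {y}, y * y = s → x * y * (x * y) = s → y * x = x * y * s := fun {y} a b => by
    rw [← hx, mul_assoc, mul_right_inj, ← mul_assoc] at b
    calc y * x = y * x * (s * s) := by rw [s2, mul_one]
      _ = y * x * y * y * s := by nth_rewrite 1 [← a]; group
      _ = _ := by rw [b]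
  have := k h3 h4
  rw [mul_assoc, k hz h2, ← mul_assoc, ← mul_assoc, k hy h1, mul_left_inj, mul_assoc _ s, ← hs, ← mul_assoc,
    mul_assoc x] at this
  simpa using this

section

variable (hN : Hy 2 g N) (hNM : N ≤ M) (h : Hy 2 g M) (hn : ¬ SLin M)
include hN hNM

theorem exC {X : M7} (hX : InM N X) (c : X * σ = σ * X) : ∃ c : CC M, c.1 ∈ N ∧ c.1.1 = X :=
  let ⟨k, a, b⟩ := hX; ⟨⟨k, hNM a, mem_Cm.2 (b ▸ c)⟩, a, b⟩

theorem ex_ev (m : Fin 168) : ∃ c : CC M, c.1 ∈ N ∧ (rr M c).1 = ev m := by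
  obtain ⟨a, a1, a2⟩ := exC hN hNM hN.hu (by decide +kernel)
  obtain ⟨b, b1, b2⟩ := exC hN hNM hN.hδ (by decide +kernel)
  obtain ⟨c, c1, c2⟩ := exC hN hNM (hΦ hN) (by decide +kernel)
  have a3 : (rr M a).1 = u3 := by rw [rr_val, a2]; decide +kernel
  have b3 : (rr M b).1 = δ3 := by rw [rr_val, b2]; decide +kernel
  have c3 : (rr M c).1 = Φ3 := by rw [rr_val, c2]; decide +kernel
  refine ⟨a ^ (m.1 % 7) * b ^ (m.1 / 7 % 3) * if m.1 / 21 = 7 then 1 else c * a ^ (m.1 / 21),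
    mul_mem (mul_mem (pow_mem a1 _) (pow_mem b1 _)) ?_, ?_⟩
  · split_ifs
    exacts [one_mem _, mul_mem c1 (pow_mem a1 _)]
  · rw [ev]
    split_ifs <;> simp only [map_mul, map_pow, map_one, Units.val_mul, Units.val_pow_eq_pow_val, a3, b3, c3,
      Units.val_one]

theorem ex_scal (a : F8) (ha : a ≠ 0) : ∃ c : CC M, c.1 ∈ N ∧ c.1.1 = a • 1 := by
  obtain ⟨k, rfl⟩ := (by decide +kernel : ∀ a : F8, a ≠ 0 → ∃ k : Fin 7, a = g ^ k.1) a ha
  exact exC hN hNM (((inM_left (hN.hρ.mul hN.hτ) (hN.hτ.mul hN.hρ) (Z := g • 1)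
    (by decide +kernel)).pow k).congr (by simp [_root_.smul_pow])) (by simp)

include h hn

omit hN hNM in
theorem rr_eq {c d : CC M} (e : rr M c = rr M d) : c.1.1 = d.1.1 ∨ c.1.1 = d.1.1 * σ := by
  have := ker_cases h (mon h hn) (InM.of (d⁻¹ * c).2.1) (d⁻¹ * c).2.2 (by
    rw [← rr_val, map_mul, map_inv, e, inv_mul_cancel, Units.val_one])
  exact this.imp (fun f => ((Units.inv_mul_eq_iff_eq_mul d.1).1 f).trans (mul_one _))
    fun f => (Units.inv_mul_eq_iff_eq_mul d.1).1 f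

theorem sq_eq {c d : CC M} (e : (rr M c).1 * (rr M d).1 = (rr M d).1 * Φ3) : c.1.1 * c.1.1 = σ := by
  obtain ⟨f, -, f2⟩ := exC hN hNM (hΦ hN) (by decide +kernel)
  have f3 : (rr M f).1 = Φ3 := by rw [rr_val, f2]; decide +kernel
  have e1 : (d * f * d⁻¹).1.1 * (d * f * d⁻¹).1.1 = σ := by
    have : (d * f * d⁻¹ * (d * f * d⁻¹)) * d = d * (f * f) := by group
    generalize d * f * d⁻¹ = y at this
    have t : y.1.1 * y.1.1 * d.1.1 = d.1.1 * (f.1.1 * f.1.1) := congrArg (fun x : CC M => x.1.1) this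
    rw [f2, (by decide +kernel : Φ g * Φ g = σ), mem_Cm.1 d.2.2] at t
    exact (Units.mul_left_inj d.1).1 t
  rcases rr_eq h hn (c := c) (d := d * f * d⁻¹) (by
    rw [map_mul, map_mul, map_inv, eq_mul_inv_iff_mul_eq]
    exact Units.ext (by rw [Units.val_mul, Units.val_mul, e, f3])) with k | k <;> rw [k]
  · exact e1
  · generalize d * f * d⁻¹ = y at e1
    rw [mul_assoc, ← mul_assoc σ, ← mem_Cm.1 y.2.2, mul_assoc, σσ, mul_one, e1]

theorem all_ev (c : CC M) (d : (rr M c).1.det = 1) : ∃ m, (rr M c).1 = ev m := by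
  rcases ((S5774.result (F := F8)).2.2.2.1 F2 3 P3 Nat.prime_three (by rw [card_F2]; rfl)).2
    ((rr M).range ⊓ Geo.specialLinear (Fin 3) F8) (fun x hx => ⟨by
      obtain ⟨m, hm⟩ := mem_ev hx.1 (H7.mem_specialLinear_iff.1 hx.2)
      obtain ⟨c, -, e⟩ := ex_ev hN hNM m
      exact ⟨c, Units.ext (e.trans hm.symm)⟩, hx.2⟩) inf_le_right with k | k
  · exact mem_ev (k.le ⟨⟨c, rfl⟩, H7.mem_specialLinear_iff.2 d⟩).1 d
  have l : ∀ X : M3, X.det = 1 → ∃ c : CC M, (rr M c).1 = X := fun X hX => by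
    obtain ⟨c, hc⟩ := (k.ge ((H7.mem_specialLinear_iff (g := GeneralLinearGroup.mkOfDetNeZero X
      (hX.trans_ne one_ne_zero))).2 hX)).1
    exact ⟨c, by rw [hc]; rfl⟩
  obtain ⟨s, -, s2⟩ := exC hN hNM hN.hσ rfl
  have sq : ∀ (c : CC M) (t : F8), t ≠ 0 → (rr M c).1 = 1 + t • (Φ3 - 1) → c * c = s := fun c t t0 e => by
    obtain ⟨d, hd⟩ := l (Dt t) (by rw [det_fin_three, (Dt_spec t t0).2])
    exact Subtype.ext (Units.ext ((sq_eq hN hNM h hn (d := d) (by rw [e, hd, (Dt_spec t t0).1])).trans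
      s2.symm))
  obtain ⟨x, hx⟩ := l (1 + (1 : F8) • (Φ3 - 1)) (by rw [det_fin_three]; decide +kernel)
  obtain ⟨y, hy⟩ := l (1 + g • (Φ3 - 1)) (by rw [det_fin_three]; decide +kernel)
  obtain ⟨z, hz⟩ := l (1 + g ^ 2 • (Φ3 - 1)) (by rw [det_fin_three]; decide +kernel)
  have := no_ext (s := s) (fun a => Subtype.ext (Units.ext (by simpa [s2] using mem_Cm.1 a.2.2)))
    (Subtype.ext (Units.ext (by simp [s2, σσ]))) (sq x _ one_ne_zero hx) (sq y _ (by decide +kernel) hy)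
    (sq z _ (by decide +kernel) hz)
    (sq _ (1 + g) (by decide +kernel) (by rw [map_mul, Units.val_mul, hx, hy]; decide +kernel))
    (sq _ (1 + g ^ 2) (by decide +kernel) (by rw [map_mul, Units.val_mul, hx, hz]; decide +kernel))
    (sq _ (g + g ^ 2) (by decide +kernel) (by rw [map_mul, Units.val_mul, hy, hz]; decide +kernel))
    (sq _ (1 + g + g ^ 2) (by decide +kernel) (by
      rw [map_mul, map_mul, Units.val_mul, Units.val_mul, hx, hy, hz]; decide +kernel))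
  rw [this] at s2
  exact absurd s2 (by change ¬ (1 : M7) = σ; decide +kernel)

theorem dec_ev (c : CC M) : ∃ (a : F8) (m : Fin 168) (z : CC M), a ≠ 0 ∧ z.1 ∈ N ∧ z.1.1 = a • 1 ∧
    (rr M (z * c)).1 = ev m := by
  obtain ⟨a, a0, ha⟩ := (by decide +kernel : ∀ d : F8, d ≠ 0 → ∃ a, a ≠ 0 ∧ a ^ 3 * d = 1) _
    (rr M c).det_ne_zero
  obtain ⟨z, z1, z2⟩ := ex_scal hN hNM a a0
  obtain ⟨m, hm⟩ := all_ev hN hNM h hn (z * c) (by
    rw [map_mul, Units.val_mul, rr_val z, z2, det_mul, Matrix.mul_smul, Matrix.smul_mul, det_smul,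
      (by decide +kernel : Z3ᵀ * (1 : M7) * Au F8 = 1), det_one, mul_one, Fintype.card_fin, ha])
  exact ⟨a, m, z, a0, z1, z2, hm⟩

theorem main8 {ω : F8}  (h' : Hy 2 ω M) (hsc : ∀ x ∈ M, (∃ a : F8, x.1 * ρ ω = a • (ρ ω * x.1)) →
    (∃ b : F8, x.1 * τ = b • (τ * x.1)) → x ∈ N) : M ≤ N := by
  haveI := h.fin
  refine endgame7 h' hsc (fun c c1 c2 => ?_) (fun c c1 c2 c3 => ?_) fun O hO ho c c1 c2 => ?_
  · obtain ⟨a, m, z, -, z1, -, e⟩ := dec_ev hN hNM h hn ⟨c, c1, c2⟩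
    obtain ⟨d, d1, d2⟩ := ex_ev hN hNM m
    refine (mul_mem_cancel_left z1).1 (inM_iff.1 ?_)
    rcases rr_eq h hn (Units.ext (e.trans d2.symm)) with k | k
    exacts [(InM.of d1).congr k.symm, ((InM.of d1).mul hN.hσ).congr k.symm]
  · let k : CC M := ⟨c, c1, c2⟩
    have k2 : (rr M k).1 * (rr M k).1 = 1 := by
      rw [← Units.val_mul, ← map_mul, show k * k = 1 from Subtype.ext (Units.ext c3), map_one, Units.val_one]
    obtain ⟨m, hm⟩ := all_ev hN hNM h hn k ((by decide +kernel : ∀ d : F8, d * d = 1 → d = 1) _ (by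
      rw [← det_mul, k2, det_one]))
    rcases ev_inv m (hm ▸ k2) with e | ⟨v, e⟩
    · exact (rr_eq h hn (c := k) (d := 1) (Units.ext (by rw [hm, e, map_one, Units.val_one]))).imp_right
        fun f => f.trans (one_mul _)
    · obtain ⟨d, -, d2⟩ := ex_ev hN hNM v
      exact absurd (c3.symm.trans (sq_eq hN hNM h hn (c := k) (d := d) (by rw [hm, d2, e])))
        (by decide +kernel)
  · let ι : CC M →* M := Subgroup.inclusion inf_le_left
    have od : ∀ {G : Type} [Group G] (r : CC M →* G) (x : CC M), ι x ∈ O → r x ^ 7 * r x ^ 7 = 1 →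
        r x ^ 7 = 1 := fun r x hx e => by
      obtain ⟨n, hn⟩ := ho
      have hι : Function.Injective ι := Subgroup.inclusion_injective _
      have : x ^ Nat.card O = 1 := hι (by
        rw [map_pow, map_one]; exact orderOf_dvd_iff_pow_eq_one.1 (O.orderOf_dvd_natCard hx))
      have := congrArg (fun y => r y ^ 7) this
      simp only [map_pow, map_one, one_pow] at this
      rwa [← pow_mul, mul_comm, pow_mul, hn, pow_succ, pow_mul, pow_two, e, one_pow, one_mul] at this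
    let k : CC M := ⟨c, c.2, c2⟩
    obtain ⟨a, m, z, a0, -, z2, e⟩ := dec_ev hN hNM h hn k
    have a7 : a⁻¹ ^ 7 = 1 := (by decide +kernel : ∀ a : F8, a ≠ 0 → a⁻¹ ^ 7 = 1) a a0
    rcases ev_odd m with f | ⟨v, f1, f2, f3⟩
    · have := rr_eq h hn (c := z * k) (d := 1) (Units.ext (by rw [e, f, map_one, Units.val_one]))
      simp only [Subgroup.coe_mul, Units.val_mul, z2, smul_mul_assoc, one_mul, OneMemClass.coe_one,
        Units.val_one, ← eq_inv_smul_iff₀ a0] at this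
      refine ⟨_, this.resolve_right fun t => ?_⟩
      have t7 : ((CC M).subtype k ^ 7).1 = σ := by
        rw [Units.val_pow_eq_pow_val, Subgroup.subtype_apply, t, _root_.smul_pow, a7]; decide +kernel
      rw [od (CC M).subtype k c1 (Units.ext (by rw [Units.val_mul, t7, σσ]; rfl))] at t7
      exact absurd t7 (by change ¬ (1 : M7) = σ; decide +kernel)
    exfalso
    obtain ⟨d, -, d2⟩ := ex_ev hN hNM v
    have e1 : (rr M k).1 = a⁻¹ • ev m := by
      rw [eq_inv_smul_iff₀ a0, ← e, map_mul, Units.val_mul, rr_val z, z2, Matrix.mul_smul, Matrix.smul_mul,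
        (by decide +kernel : Z3ᵀ * (1 : M7) * Au F8 = 1), smul_mul_assoc, one_mul]
    have e2 : (rr M (k * (d * k * d⁻¹)) ^ 7).1 = ev m * ev v * (ev m * ev v) := by
      rw [map_mul, map_mul, map_mul, map_inv, Units.val_pow_eq_pow_val, Units.val_mul, Units.val_mul,
        Units.val_mul, Units.inv_eq_of_mul_eq_one_right (d2 ▸ f1), d2, e1]
      simp only [smul_mul_assoc, mul_smul_comm, _root_.smul_pow, a7, one_smul, mul_assoc (ev v),
        ← mul_assoc (ev m) (ev v)]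
      simp only [pow_succ, pow_zero, one_mul, f3, mul_assoc _ (_ * _ * _) (_ * _ * _), mul_one]
    exact f2 (by rw [← e2, od (rr M) _ (by
      rw [map_mul, map_mul, map_mul, map_inv]; exact mul_mem c1 (hO.conj_mem _ c1 _))
      (Units.ext (by rw [Units.val_mul, e2, f3]; rfl))]; rfl)

end

end Cfsg.Agent.H4.Q8
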