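import Mathlib

/-! A computable model of the field with eight elements. -/

set_option autoImplicit false

namespace Cfsg.Agent.H4.Q8

/-- the field with eight elements: `F₂[x]/(x³+x+1)`, coefficients as binary digits -/
def F8 : Type := Fin 8

namespace F8

instance : DecidableEq F8 := inferInstanceAs (DecidableEq (Fin 8))
instance : Fintype F8 := inferInstanceAs (Fintype (Fin 8))

/-- the element with the given binary digits -/
def mk (n : ℕ) : F8 := (⟨n % 8, Nat.mod_lt _ (by decide)⟩ : Fin 8)

/-- binary digits -/
def val (a : F8) : ℕ := Fin.val (n := 8) a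

instance : Zero F8 := ⟨mk 0⟩
instance : One F8 := ⟨mk 1⟩
instance : Add F8 := ⟨fun a b => mk (a.val ^^^ b.val)⟩
instance : Neg F8 := ⟨fun a => a⟩
instance : Mul F8 := ⟨fun a b => mk (2821848294356612419217921029917578219971947684264937521152 >>> (3 * (8 * a.val + b.val)))⟩
instance : Inv F8 := ⟨fun a => mk (9272648 >>> (3 * a.val))⟩

instance : Field F8 := Field.ofMinimalAxioms F8 (by decide +kernel) (by decide +kernel) (by decide +kernel)
  (by decide +kernel) (by decide +kernel) (by decide +kernel) (by decide +kernel) (by decide +kernel)
  (by decide +kernel) ⟨0, 1, by decide +kernel⟩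

theorem card : Fintype.card F8 = 8 := rfl

end F8

end Cfsg.Agent.H4.Q8
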