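import Cfsg.Agent.H4.Q8.E

/-! The overgroups of the normaliser of `7^{1+2}` in `SL₇(8)`: transport to an arbitrary field. -/

set_option autoImplicit false
set_option maxRecDepth 100000

namespace Cfsg.Agent.H2.S7

open Matrix Cfsg.Agent.H5.T3 Cfsg.Agent.H5.C5 Cfsg.Agent.H4.Q8

theorem Hy.to_g {ω : F8} {M : Subgroup (GL (Fin 7) F8)} (h : Hy 2 ω M) : Hy 2 g M := by
  obtain ⟨j, a, b, e1, e2, e3⟩ := (by decide +kernel : ∀ ω : F8, Om7 ω → ∃ (j : Fin 7) (a : Fin 3)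
    (b : Fin 2), ρ ω ^ j.1 = ρ g ∧ uu ω ^ j.1 = uu g ∧ Φ ω * δ ^ a.1 * σ ^ b.1 = Φ g) ω h.om
  obtain ⟨c, h1, h2⟩ := h.hφ
  exact ⟨h.prime, h.char, h.finF, h.cd, by decide +kernel, (h.hρ.pow _).congr e1, h.hτ,
    (h.hu.pow _).congr e2, h.hσ, h.hδ, ⟨c, h1, ((h2.mul (h.hδ.pow a)).mul (h.hσ.pow b)).congr (by
      rw [smul_mul_assoc, smul_mul_assoc, e3])⟩, h.det⟩

theorem main7_F8 : Main7 F8 2 := fun hN hNM hdet hsc => or_iff_not_imp_left.2 fun hn =>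
  main8 hN.to_g hNM (hN.to_g.mono hNM hdet) hn (hN.mono hNM hdet) hsc

theorem Main7.of_equiv {F K : Type*} [Field F] [Field K] (e : F ≃+* K) {p : ℕ} (H : Main7 K p) :
    Main7 F p := fun {ω N M} hN hNM hdet hsc => by
  let E : GL (Fin 7) F →* GL (Fin 7) K := GeneralLinearGroup.map e.toRingHom
  have v : ∀ x, (E x).1 = e.mapMatrix x.1 := fun _ => rfl
  have inj : Function.Injective E := fun x y h => Units.ext (e.mapMatrix.injective (congrArg Units.val h))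
  have i : ∀ {L : Subgroup (GL (Fin 7) F)} {X Y}, InM L X → e.mapMatrix X = Y → InM (L.map E) Y :=
    fun ⟨k, a, b⟩ c => ⟨_, ⟨k, a, rfl⟩, by rw [v, b, c]⟩
  have d : ∀ {L : Subgroup (GL (Fin 7) F)}, (∀ x ∈ L, x.1.det = 1) → ∀ x ∈ L.map E, x.1.det = 1 := by
    rintro L h _ ⟨x, hx, rfl⟩
    rw [v, ← e.map_det, h x hx, map_one]
  have s : ∀ (a : F) (X : M7 F), e.mapMatrix (a • X) = e a • e.mapMatrix X := fun a X =>
    map_smul' _ _ _ (map_mul e)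
  have eρ : e.mapMatrix (ρ ω) = ρ (e ω) := by m7x
  have eτ : e.mapMatrix τ = τ := by m7x
  haveI := hN.char
  haveI := hN.finF
  obtain ⟨c, c1, c2⟩ := hN.hφ
  refine (H (ω := e ω) (N := N.map E) (M := M.map E) ⟨hN.prime, charP_of_injective_ringHom
    (f := e.toRingHom) e.injective p, .of_equiv _ e.toEquiv, Nat.card_congr e.toEquiv ▸ hN.cd, by
      simpa [Om7] using congrArg e hN.om, i hN.hρ eρ, i hN.hτ eτ, i hN.hu (by m7x), i hN.hσ (by m7x),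
      i hN.hδ (by m7x), ⟨e c, by simpa [map_ofNat] using congrArg e c1, i c2 (by rw [s]; congr 1; m7x)⟩,
      d hN.det⟩ (Subgroup.map_mono hNM) (d hdet) ?_).imp (fun h Y hY => ?_)
    (Subgroup.map_le_map_iff_of_injective inj).1
  · rintro _ ⟨x, hx, rfl⟩ ⟨a, ha⟩ ⟨b, hb⟩
    refine ⟨x, hsc x hx ⟨e.symm a, e.mapMatrix.injective ?_⟩ ⟨e.symm b, e.mapMatrix.injective ?_⟩, rfl⟩
    · rw [s, map_mul, map_mul, eρ, ← v, ha, e.apply_symm_apply]
    · rw [s, map_mul, map_mul, eτ, ← v, hb, e.apply_symm_apply]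
  · obtain ⟨_, ⟨x, hx, rfl⟩, f⟩ := h (e.mapMatrix Y) (by rw [← e.map_det, hY, map_one])
    exact ⟨x, hx, e.mapMatrix.injective f⟩

theorem main7_two {F : Type*} [Field F] : Main7 F 2 := fun {ω N M} hN => by
  haveI := hN.finF
  letI := Fintype.ofFinite F
  exact Main7.of_equiv (FiniteField.ringEquivOfCardEq (K := F) (K' := F8) (by
    rw [← Nat.card_eq_fintype_card, hN.card8 rfl]; rfl)) main7_F8 hN

end Cfsg.Agent.H2.S7
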